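import Mathlib
import Cfsg.Prelude.Def_Characters
import Cfsg.Agent.Lib.Helper2.CharGal

set_option autoImplicit false

namespace Cfsg.Agent.Lib.Helper2

open Module
open scoped ComplexConjugate IntermediateField

theorem exists_embedding_of_coprime {N : ℕ} (hN : N ≠ 0) {m : ℕ} (hm : m.Coprime N) :
    ∃ σ : cycField N →ₐ[ℚ] ℂ, ∀ z : cycField N, (z : ℂ) ^ N = 1 → σ z = (z : ℂ) ^ m := by
  have : NeZero N := ⟨hN⟩
  have hζ := zetaN_isPrimitiveRoot N hN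
  have hint : IsIntegral ℚ (zetaN N) := by
    refine IsIntegral.of_pow (Nat.pos_of_ne_zero hN) ?_
    rw [hζ.pow_eq_one]
    exact isIntegral_one
  have hroot : zetaN N ^ m ∈ (minpoly ℚ (zetaN N)).aroots ℂ := by
    rw [Polynomial.mem_aroots]
    refine ⟨minpoly.ne_zero hint, ?_⟩
    rw [← Polynomial.cyclotomic_eq_minpoly_rat hζ (Nat.pos_of_ne_zero hN), Polynomial.aeval_def,
      Polynomial.eval₂_eq_eval_map, Polynomial.map_cyclotomic]
    exact (hζ.pow_of_coprime m hm).isRoot_cyclotomic (Nat.pos_of_ne_zero hN)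
  let σ : cycField N →ₐ[ℚ] ℂ :=
    (IntermediateField.algHomAdjoinIntegralEquiv ℚ hint).symm ⟨zetaN N ^ m, hroot⟩
  let ζ' : cycField N := ⟨zetaN N, zetaN_mem N⟩
  have hσ : σ ζ' = zetaN N ^ m :=
    IntermediateField.algHomAdjoinIntegralEquiv_symm_apply_gen ℚ hint ⟨zetaN N ^ m, hroot⟩
  refine ⟨σ, fun z hz => ?_⟩
  obtain ⟨a, -, ha⟩ := hζ.eq_pow_of_pow_eq_one hz
  have hz' : z = ζ' ^ a := Subtype.ext (by rw [← ha]; rfl)
  rw [hz', map_pow, hσ]
  simp only [SubmonoidClass.coe_pow, ζ']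
  rw [← pow_mul, ← pow_mul, mul_comm]

theorem rat_of_fixed (K : IntermediateField ℚ ℂ) [FiniteDimensional ℚ K] (x : K)
    (h : ∀ σ : K →ₐ[ℚ] ℂ, σ x = (x : ℂ)) : ∃ q : ℚ, (x : ℂ) = q := by
  have h1 := trace_eq_sum_embeddings (K := ℚ) (L := K) ℂ (x := x)
  simp only [h, Finset.sum_const, Finset.card_univ, nsmul_eq_mul] at h1
  have hpos : 0 < Fintype.card (K →ₐ[ℚ] ℂ) := Fintype.card_pos_iff.2 ⟨K.val⟩
  have hne : (Fintype.card (K →ₐ[ℚ] ℂ) : ℂ) ≠ 0 := by exact_mod_cast hpos.ne'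
  refine ⟨Algebra.trace ℚ K x / Fintype.card (K →ₐ[ℚ] ℂ), ?_⟩
  push_cast
  rw [eq_div_iff hne, mul_comm]
  exact h1.symm

variable {G : Type*} [Group G]

theorem exists_embedding_char [Finite G] {m : ℕ} (hm : m.Coprime (Nat.card G)) :
    ∃ σ : cycField (Nat.card G) →ₐ[ℚ] ℂ, ∀ χ : G → ℂ, Cfsg.IsCharacter G χ → ∀ g : G,
      ∀ z : cycField (Nat.card G), (z : ℂ) = χ g → σ z = χ (g ^ m) := by
  obtain ⟨σ, hσ⟩ := exists_embedding_of_coprime Nat.card_pos.ne' hm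
  refine ⟨σ, ?_⟩
  rintro _ ⟨n, ρ, rfl⟩ g z hz
  obtain ⟨ι, hι, b, μ, h1, h2, h3, -⟩ := exists_rep_eigenbasis ρ g
  have hpow : ∀ i, μ i ^ Nat.card G = 1 := by
    intro i
    obtain ⟨c, hc⟩ := orderOf_dvd_natCard g
    rw [hc, pow_mul, h2, one_pow]
  rw [Representation.character, trace_of_diag b _ _ h1] at hz
  rw [Representation.character, trace_of_diag b _ _ (h3 m)]
  have hz' : z = ∑ i, (⟨μ i, mem_cycField_of_pow_eq_one Nat.card_pos.ne' (hpow i)⟩ :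
      cycField (Nat.card G)) := by
    apply Subtype.ext
    rw [hz]
    simp
  rw [hz', map_sum]
  exact Finset.sum_congr rfl fun i _ => hσ _ (hpow i)

end Cfsg.Agent.Lib.Helper2
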