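import Cfsg.Agent.Lib.Helper2.Brauer2
import Cfsg.Agent.Lib.Helper2.CharReg
import Cfsg.Agent.S0187

set_option autoImplicit false

namespace Cfsg.Agent.Lib.Helper2

open scoped ComplexConjugate

universe u v

variable {G : Type u} [Group G]

/-- the function with value `|A|` on the generators of `A` and `0` elsewhere -/
noncomputable def thetaFun (A : Type u) [Group A] : A → ℂ :=
  open Classical in fun x => if Subgroup.zpowers x = ⊤ then (Nat.card A : ℂ) else 0

theorem extendByZero_thetaFun [Finite G] (B : Subgroup G) (y : G) [Decidable (B = Subgroup.zpowers y)] :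
    (Nat.card B : ℂ)⁻¹ * Cfsg.extendByZero B (thetaFun B) y =
      if B = Subgroup.zpowers y then 1 else 0 := by
  classical
  by_cases hy : y ∈ B
  · rw [extendByZero_of_mem B _ hy]
    have hiff : Subgroup.zpowers (⟨y, hy⟩ : B) = ⊤ ↔ B = Subgroup.zpowers y := by
      constructor
      · intro h
        apply le_antisymm
        · intro b hb
          have : (⟨b, hb⟩ : B) ∈ Subgroup.zpowers (⟨y, hy⟩ : B) := by rw [h]; exact Subgroup.mem_top _
          obtain ⟨k, hk⟩ := Subgroup.mem_zpowers_iff.1 this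
          exact Subgroup.mem_zpowers_iff.2 ⟨k, congrArg Subtype.val hk⟩
        · exact Subgroup.zpowers_le.2 hy
      · intro h
        rw [eq_top_iff]
        rintro ⟨b, hb⟩ -
        have hb' : b ∈ Subgroup.zpowers y := h ▸ hb
        obtain ⟨k, hk⟩ := Subgroup.mem_zpowers_iff.1 hb'
        exact Subgroup.mem_zpowers_iff.2 ⟨k, Subtype.ext hk⟩
    unfold thetaFun
    by_cases h : B = Subgroup.zpowers y
    · rw [if_pos (hiff.2 h), if_pos h, inv_mul_cancel₀ (card_subgroup_ne_zero B)]
    · rw [if_neg (fun h' => h (hiff.1 h')), if_neg h, mul_zero]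
  · rw [extendByZero_of_not_mem B _ hy, mul_zero, if_neg]
    intro h
    exact hy (h ▸ Subgroup.mem_zpowers y)

theorem sum_ind_thetaFun [Fintype G] [Fintype (Subgroup G)] :
    ∑ B : Subgroup G, Cfsg.indFun B (thetaFun B) = fun _ => (Nat.card G : ℂ) := by
  classical
  funext g
  rw [Finset.sum_apply]
  simp only [indFun_apply, Finset.mul_sum, extendByZero_thetaFun]
  rw [Finset.sum_comm]
  simp only [Finset.sum_ite_eq', Finset.mem_univ, if_true, Finset.sum_const, Finset.card_univ,
    nsmul_eq_mul, mul_one]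
  rw [Nat.card_eq_fintype_card]

theorem thetaFun_top [Finite G] :
    thetaFun (⊤ : Subgroup G) = fun h : (⊤ : Subgroup G) => thetaFun G (h : G) := by
  classical
  funext h
  unfold thetaFun
  have hiff : Subgroup.zpowers h = ⊤ ↔ Subgroup.zpowers (h : G) = ⊤ := by
    constructor
    · intro hh
      rw [eq_top_iff]
      intro b _
      have : (⟨b, Subgroup.mem_top b⟩ : (⊤ : Subgroup G)) ∈ Subgroup.zpowers h := by
        rw [hh]; exact Subgroup.mem_top _
      obtain ⟨k, hk⟩ := Subgroup.mem_zpowers_iff.1 this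
      exact Subgroup.mem_zpowers_iff.2 ⟨k, congrArg Subtype.val hk⟩
    · intro hh
      rw [eq_top_iff]
      rintro ⟨b, hb⟩ -
      have hb' : b ∈ Subgroup.zpowers (h : G) := by rw [hh]; exact Subgroup.mem_top _
      obtain ⟨k, hk⟩ := Subgroup.mem_zpowers_iff.1 hb'
      exact Subgroup.mem_zpowers_iff.2 ⟨k, Subtype.ext hk⟩
  have hcard : Nat.card (⊤ : Subgroup G) = Nat.card G := Subgroup.card_top
  by_cases hh : Subgroup.zpowers (h : G) = ⊤
  · rw [if_pos hh, if_pos (hiff.2 hh), hcard]
  · rw [if_neg hh, if_neg (fun h' => hh (hiff.1 h'))]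

theorem indFun_top' [Fintype G] {θ : G → ℂ} (hθ : Cfsg.IsClassFunction G θ) :
    Cfsg.indFun (⊤ : Subgroup G) (fun h => θ h) = θ := by
  funext g
  rw [indFun_apply]
  have : ∀ x : G, Cfsg.extendByZero (⊤ : Subgroup G) (fun h => θ h) (x⁻¹ * g * x) = θ g := by
    intro x
    rw [extendByZero_of_mem _ _ (Subgroup.mem_top _)]
    have := hθ g x⁻¹
    rwa [inv_inv] at this
  simp only [this, Finset.sum_const, Finset.card_univ, nsmul_eq_mul]
  rw [Subgroup.card_top, Nat.card_eq_fintype_card, ← mul_assoc, inv_mul_cancel₀, one_mul]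
  exact_mod_cast Fintype.card_ne_zero

theorem isGeneralizedCharacter_thetaFun :
    ∀ (n : ℕ) (A : Type u) [Group A] [Fintype A], Nat.card A = n → IsCyclic A →
      Cfsg.IsGeneralizedCharacter A (thetaFun A) := by
  intro n
  induction n using Nat.strong_induction_on with
  | _ n ih =>
  intro A _ _ hn hcyc
  classical
  have : Fintype (Subgroup A) := Fintype.ofFinite _
  have hcomm : ∀ a b : A, a * b = b * a := fun a b => hcyc.isMulCommutative.is_comm.comm a b
  have hcl : Cfsg.IsClassFunction A (thetaFun A) := by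
    intro g h
    rw [hcomm h g, mul_inv_cancel_right]
  have hsum := sum_ind_thetaFun (G := A)
  rw [← Finset.add_sum_erase Finset.univ _ (Finset.mem_univ (⊤ : Subgroup A)),
    thetaFun_top (G := A), indFun_top' hcl] at hsum
  have h1 : thetaFun A = (fun _ => (Nat.card A : ℂ)) -
      ∑ B ∈ Finset.univ.erase (⊤ : Subgroup A), Cfsg.indFun B (thetaFun B) := by
    rw [eq_sub_iff_add_eq]; exact hsum
  rw [h1]
  apply IsGeneralizedCharacter.sub
  · have := IsGeneralizedCharacter.zsmul
      (IsCharacter.isGeneralizedCharacter (IsCharacter.one (G := A))) (Nat.card A : ℤ)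
    convert this using 1
    funext a; simp
  · apply IsGeneralizedCharacter.sum
    intro B hB
    have hBne : B ≠ ⊤ := (Finset.mem_erase.1 hB).1
    have : Fintype B := Fintype.ofFinite _
    apply IsGeneralizedCharacter.ind
    have hlt : Nat.card B < n := by
      rw [← hn]
      apply lt_of_le_of_ne (Subgroup.card_le_card_group B)
      intro h
      exact hBne (Subgroup.eq_top_of_card_eq B h)
    exact ih _ hlt B rfl inferInstance

/-- the additive group generated by the functions induced from linear characters of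
cyclic subgroups -/
noncomputable def cycSpan [Fintype G] : AddSubgroup (G → ℂ) :=
  AddSubgroup.closure {f | ∃ (E : Subgroup G) (lam : E →* ℂˣ),
    IsCyclic E ∧ f = Cfsg.indFun E (fun e => (lam e : ℂ))}

theorem neg_list_sum'' [Fintype G] (l : List ((E : Subgroup G) × ((E →* ℂˣ) × ℤ))) :
    -(l.map fun t => (t.2.2 : ℂ) • Cfsg.indFun t.1 (fun e => (t.2.1 e : ℂ))).sum =
      ((l.map (fun t => (⟨t.1, (t.2.1, -t.2.2)⟩ : (E : Subgroup G) × ((E →* ℂˣ) × ℤ)))).map
        fun t => (t.2.2 : ℂ) • Cfsg.indFun t.1 (fun e => (t.2.1 e : ℂ))).sum := by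
  induction l with
  | nil => simp
  | cons a l ih =>
    simp only [List.map_cons, List.sum_cons, neg_add, ih]
    congr 1
    simp

theorem exists_list_of_mem_cycSpan [Fintype G] {f : G → ℂ} (hf : f ∈ cycSpan (G := G)) :
    ∃ l : List ((E : Subgroup G) × ((E →* ℂˣ) × ℤ)),
      (∀ t ∈ l, IsCyclic t.1) ∧
      f = (l.map fun t => (t.2.2 : ℂ) • Cfsg.indFun t.1 (fun e => (t.2.1 e : ℂ))).sum := by
  unfold cycSpan at hf
  induction hf using AddSubgroup.closure_induction with
  | mem x hx =>
    obtain ⟨E, lam, hE, rfl⟩ := hx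
    refine ⟨[⟨E, (lam, 1)⟩], ?_, ?_⟩
    · intro t ht
      rw [List.mem_singleton] at ht
      subst ht
      exact hE
    · simp
  | zero => exact ⟨[], by simp, by simp⟩
  | add y z _ _ hy hz =>
    obtain ⟨l₁, h₁, rfl⟩ := hy
    obtain ⟨l₂, h₂, rfl⟩ := hz
    refine ⟨l₁ ++ l₂, ?_, ?_⟩
    · intro t ht
      rcases List.mem_append.1 ht with h | h
      · exact h₁ t h
      · exact h₂ t h
    · rw [List.map_append, List.sum_append]
  | neg y _ hy =>
    obtain ⟨l, h, rfl⟩ := hy
    refine ⟨l.map (fun t => ⟨t.1, (t.2.1, -t.2.2)⟩), ?_, ?_⟩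
    · intro t ht
      obtain ⟨s, hs, rfl⟩ := List.mem_map.1 ht
      exact h s hs
    · exact neg_list_sum'' l

theorem ind_genChar_mem_cycSpan [Fintype G] (B : Subgroup G) (hB : IsCyclic B) {ξ : B → ℂ}
    (hξ : Cfsg.IsGeneralizedCharacter B ξ) : Cfsg.indFun B ξ ∈ cycSpan (G := G) := by
  classical
  have : Fintype B := Fintype.ofFinite _
  have hfin := finite_irrCharacter (G := B)
  cases nonempty_fintype (Cfsg.IrrCharacter B)
  have hcomm : ∀ a b : B, a * b = b * a := fun a b => hB.isMulCommutative.is_comm.comm a b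
  rw [IsClassFunction.eq_sum_irr (IsGeneralizedCharacter.isClassFunction hξ), indFun_sum]
  apply AddSubgroup.sum_mem
  intro χ _
  obtain ⟨m, hm⟩ := IsGeneralizedCharacter.classInner_int hξ
    (IsCharacter.isGeneralizedCharacter (IsIrrCharacter.isCharacter χ.2))
  rw [hm, indFun_smul, Int.cast_smul_eq_zsmul]
  apply AddSubgroup.zsmul_mem
  obtain ⟨lam, hlam⟩ := IsCharacter.exists_hom_of_apply_one (IsIrrCharacter.isCharacter χ.2)
    (Cfsg.Agent.S0187.result.1 hcomm χ)
  apply AddSubgroup.subset_closure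
  refine ⟨B, lam, hB, ?_⟩
  congr 1
  funext b
  exact hlam b

theorem artin [Fintype G] {χ : G → ℂ} (hχ : Cfsg.IsCharacter G χ) :
    (Nat.card G : ℂ) • χ ∈ cycSpan (G := G) := by
  classical
  have : Fintype (Subgroup G) := Fintype.ofFinite _
  have h1 : (Nat.card G : ℂ) • χ = (∑ B : Subgroup G, Cfsg.indFun B (thetaFun B)) * χ := by
    rw [sum_ind_thetaFun]; rfl
  rw [h1, Finset.sum_mul]
  apply AddSubgroup.sum_mem
  intro B _
  rw [indFun_mul_classFunction B _ (IsCharacter.isClassFunction hχ)]
  by_cases hB : IsCyclic B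
  · have : Fintype B := Fintype.ofFinite _
    apply ind_genChar_mem_cycSpan B hB
    exact IsGeneralizedCharacter.mul (isGeneralizedCharacter_thetaFun _ B rfl hB)
      (IsCharacter.isGeneralizedCharacter (IsCharacter.restrict B hχ))
  · have h0 : thetaFun B = 0 := by
      funext b
      unfold thetaFun
      rw [if_neg]; rfl
      intro h
      exact hB ⟨b, fun x => by
        have : x ∈ Subgroup.zpowers b := by rw [h]; exact Subgroup.mem_top x
        exact this⟩
    rw [h0, zero_mul, indFun_zero]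
    exact AddSubgroup.zero_mem _

end Cfsg.Agent.Lib.Helper2
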