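import Mathlib
import Cfsg.Prelude.Def_Characters
import Cfsg.Agent.Lib.Helper2.CharInt
import Cfsg.Agent.Lib.Helper2.CharKer
import Cfsg.Agent.Lib.Helper2.CharDeg

set_option autoImplicit false

namespace Cfsg.Agent.Lib.Helper2

open Module Representation
open scoped ComplexConjugate MonoidAlgebra

universe u v w
variable {G : Type u} [Group G]

/-- If an algebraic-integer combination of the operators `ρ g` is a scalar, the scalar is an
algebraic integer. -/
theorem isIntegral_of_sum_smul_eq [Fintype G] {V : Type v} [AddCommGroup V] [Module ℂ V]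
    [Nontrivial V] (ρ : Representation ℂ G V) (a : G → ℂ)
    (hint : ∀ g, IsIntegral ℤ (a g)) (c : ℂ) (hc : ∑ g : G, a g • ρ g = c • LinearMap.id) :
    IsIntegral ℤ c := by
  classical
  let O := integralClosure ℤ ℂ
  let z : MonoidAlgebra O G := ∑ g : G, MonoidAlgebra.single g (⟨a g, hint g⟩ : O)
  have hz : IsIntegral O z := IsIntegral.of_finite O z
  let Φ : MonoidAlgebra O G →ₐ[O] Module.End ℂ V := MonoidAlgebra.lift O (Module.End ℂ V) G ρ
  have hΦz : Φ z = ∑ g : G, a g • ρ g := by
    simp only [z, map_sum, Φ, MonoidAlgebra.lift_single]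
    rfl
  have h3 : IsIntegral O (Φ z) := hz.map Φ
  rw [hΦz, hc] at h3
  have h4 : IsIntegral O (algebraMap ℂ (Module.End ℂ V) c) := by
    convert h3 using 1
    rw [Algebra.algebraMap_eq_smul_one]
    rfl
  have h5 : IsIntegral O c :=
    (isIntegral_algebraMap_iff (algebraMap ℂ (Module.End ℂ V)).injective).1 h4
  exact isIntegral_trans _ h5

theorem finrank_dvd_index_center [Finite G] {V : Type v} [AddCommGroup V] [Module ℂ V]
    [FiniteDimensional ℂ V] (ρ : Representation ℂ G V) [ρ.IsIrreducible] :
    finrank ℂ V ∣ (Subgroup.center G).index := by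
  classical
  cases nonempty_fintype G
  have hnt := nontrivial_of_irr ρ
  have hχi := isIrrCharacter_character ρ
  have hχ := isCharacter_character ρ
  set Z := Subgroup.center G with hZ
  have hnpos := finrank_pos_of_irr ρ
  have hnc : (finrank ℂ V : ℂ) ≠ 0 := by exact_mod_cast hnpos.ne'
  let F : G → Module.End ℂ V := fun g => conj (ρ.character g) • ρ g
  -- invariance under the centre
  have hF : ∀ (g : G) (z : G), z ∈ Z → F (g * z) = F g := by
    intro g z hz
    obtain ⟨c, hc⟩ := schur ρ (ρ z) (fun x => by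
      rw [← Module.End.mul_eq_comp, ← Module.End.mul_eq_comp, ← map_mul, ← map_mul,
        Subgroup.mem_center_iff.1 hz x])
    have hnorm : ‖c‖ = 1 := by
      have h1 := (norm_char_eq_iff ρ z).2 ⟨c, hc⟩
      rw [Representation.character, hc, map_smul, LinearMap.trace_id, smul_eq_mul, norm_mul,
        Complex.norm_natCast] at h1
      have h2 : (0 : ℝ) < finrank ℂ V := by exact_mod_cast hnpos
      nlinarith
    have h2 : ρ (g * z) = c • ρ g := by
      rw [map_mul, hc, mul_smul_comm]
      congr 1
    have h3 : ρ.character (g * z) = c * ρ.character g := by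
      rw [Representation.character, h2, map_smul, smul_eq_mul]; rfl
    simp only [F]
    rw [h3, h2, smul_smul, map_mul]
    congr 1
    have h4 : conj c * c = 1 := by
      rw [mul_comm, Complex.mul_conj, Complex.normSq_eq_norm_sq, hnorm]; simp
    calc conj c * conj (ρ.character g) * c = (conj c * c) * conj (ρ.character g) := by ring
      _ = conj (ρ.character g) := by rw [h4, one_mul]
  -- total sum
  have htot : ∑ g : G, F g = ((Nat.card G : ℂ) / finrank ℂ V) • LinearMap.id := by
    have h1 := sum_smul_rep ρ (fun g => conj (ρ.character g)) (fun g x => by simp)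
    have h2 : ∑ g, conj (ρ.character g) * ρ.character g = (Nat.card G : ℂ) := by
      rw [← sum_char_mul_conj hχi]
      exact Finset.sum_congr rfl fun g _ => mul_comm _ _
    rw [h2] at h1
    exact h1
  -- fibres
  have hfib : ∑ g : G, F g = (Nat.card Z : ℂ) • ∑ q : G ⧸ Z, F q.out := by
    rw [← Finset.sum_fiberwise Finset.univ (fun g : G => (g : G ⧸ Z)), Finset.smul_sum]
    refine Finset.sum_congr rfl fun q _ => ?_
    have h1 : ∀ g ∈ Finset.univ.filter (fun g : G => (g : G ⧸ Z) = q), F g = F q.out := by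
      intro g hg
      have h2 : (q.out : G ⧸ Z) = (g : G ⧸ Z) := by
        rw [(Finset.mem_filter.1 hg).2]; exact q.out_eq
      rw [QuotientGroup.eq] at h2
      have h3 := hF q.out _ h2
      rw [mul_inv_cancel_left] at h3
      exact h3
    rw [Finset.sum_congr rfl h1, Finset.sum_const]
    have h4 : (Finset.univ.filter (fun g : G => (g : G ⧸ Z) = q)).card = Nat.card Z := by
      rw [Nat.card_eq_fintype_card, ← Fintype.card_subtype]
      refine Fintype.card_congr ⟨fun g => ⟨q.out⁻¹ * g.1, ?_⟩, fun z => ⟨q.out * z.1, ?_⟩, ?_, ?_⟩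
      · rw [← QuotientGroup.eq, g.2]; exact q.out_eq
      · rw [QuotientGroup.mk_mul_of_mem _ z.2]; exact q.out_eq
      · intro g; ext; simp
      · intro z; ext; simp
    rw [h4, ← Nat.cast_smul_eq_nsmul ℂ]
  have hZc : (Nat.card Z : ℂ) ≠ 0 := by exact_mod_cast Nat.card_pos.ne'
  have hsum : ∑ q : G ⧸ Z, F q.out = ((Z.index : ℂ) / finrank ℂ V) • LinearMap.id := by
    have h1 : (Nat.card Z : ℂ) • ∑ q : G ⧸ Z, F q.out =
        (Nat.card Z : ℂ) • (((Z.index : ℂ) / finrank ℂ V) • (LinearMap.id : V →ₗ[ℂ] V)) := by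
      rw [← hfib, htot, smul_smul, ← Z.card_mul_index]
      congr 1
      push_cast
      ring
    exact smul_right_injective _ hZc h1
  -- express as a sum over G
  let a : G → ℂ := fun g => if ((g : G ⧸ Z)).out = g then conj (ρ.character g) else 0
  have ha : ∑ g : G, a g • ρ g = ∑ q : G ⧸ Z, F q.out := by
    rw [← Finset.sum_fiberwise Finset.univ (fun g : G => (g : G ⧸ Z))]
    refine Finset.sum_congr rfl fun q _ => ?_
    rw [Finset.sum_eq_single q.out]
    · simp only [a, F]
      have hq : ((q.out : G) : G ⧸ Z) = q := q.out_eq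
      rw [if_pos (by rw [hq])]
    · intro g hg hne
      simp only [a]
      rw [if_neg, zero_smul]
      rw [(Finset.mem_filter.1 hg).2]
      exact fun h => hne h.symm
    · intro h
      have hq : ((q.out : G) : G ⧸ Z) = q := q.out_eq
      exact (h (Finset.mem_filter.2 ⟨Finset.mem_univ (q.out : G), hq⟩)).elim
  have hint : IsIntegral ℤ ((Z.index : ℂ) / finrank ℂ V) := by
    apply isIntegral_of_sum_smul_eq ρ a _ _ (ha.trans hsum)
    intro g
    simp only [a]
    split_ifs
    · rw [← char_inv_eq_conj]; exact isIntegral_char ρ _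
    · exact isIntegral_zero
  obtain ⟨k, hk⟩ := exists_int_of_isIntegral_of_rat hint ((Z.index : ℚ) / (finrank ℂ V : ℚ))
    (by push_cast; rfl)
  rw [div_eq_iff hnc] at hk
  have h3 : (Z.index : ℤ) = k * (finrank ℂ V : ℤ) := by exact_mod_cast hk
  have h4 : (finrank ℂ V : ℤ) ∣ (Z.index : ℤ) := ⟨k, by rw [h3, mul_comm]⟩
  exact_mod_cast h4

end Cfsg.Agent.Lib.Helper2
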