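import Cfsg.Agent.Lib.Helper2.BFree9

set_option autoImplicit false
set_option linter.style.haveILetI false
set_option linter.unusedSectionVars false
set_option maxHeartbeats 1000000
open Cfsg

namespace Cfsg.Agent.Lib.Helper2

universe u
variable {G : Type u} [Group G] [Finite G] {P : Sylow 2 G}

/-- An abelian Sylow `2`-subgroup `P ≠ 1` with at most three involutions. -/
structure Rank2 (P : Sylow 2 G) : Prop where
  comm : ∀ a ∈ (P : Subgroup G), ∀ b ∈ (P : Subgroup G), a * b = b * a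
  ne : Nat.card P ≠ 1
  omega : ∃ a b : G, ∀ x ∈ (P : Subgroup G), x * x = 1 → x = 1 ∨ x = a ∨ x = b ∨ x = a * b

theorem Rank2.le_centralizer (h : Rank2 P) :
    (P : Subgroup G) ≤ Subgroup.centralizer ((P : Subgroup G) : Set G) := by
  intro a ha
  rw [Subgroup.mem_centralizer_iff]
  intro b hb
  exact h.comm b hb a ha

theorem Rank2.odd_relIndex (h : Rank2 P) :
    Odd ((Subgroup.centralizer ((P : Subgroup G) : Set G)).relIndex
      (Subgroup.normalizer ((P : Subgroup G) : Set G))) := by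
  have h1 : (Subgroup.centralizer ((P : Subgroup G) : Set G)).relIndex
      (Subgroup.normalizer ((P : Subgroup G) : Set G))
      ∣ (P : Subgroup G).relIndex (Subgroup.normalizer ((P : Subgroup G) : Set G)) :=
    Subgroup.relIndex_dvd_of_le_left _ h.le_centralizer
  have h2 : (P : Subgroup G).relIndex (Subgroup.normalizer ((P : Subgroup G) : Set G))
      ∣ (P : Subgroup G).index :=
    ⟨_, (Subgroup.relIndex_mul_index Subgroup.le_normalizer).symm⟩
  have h3 : ¬ 2 ∣ (P : Subgroup G).index := P.not_dvd_index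
  rw [← Nat.not_even_iff_odd, even_iff_two_dvd]
  exact fun h0 => h3 (h0.trans (h1.trans h2))

theorem pow_relIndex_mem_centralizer {n : G}
    (hn : n ∈ Subgroup.normalizer ((P : Subgroup G) : Set G)) :
    n ^ ((Subgroup.centralizer ((P : Subgroup G) : Set G)).relIndex
      (Subgroup.normalizer ((P : Subgroup G) : Set G)))
      ∈ Subgroup.centralizer ((P : Subgroup G) : Set G) := by
  have := Subgroup.pow_index_mem ((Subgroup.centralizer ((P : Subgroup G) : Set G)).subgroupOf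
    (Subgroup.normalizer ((P : Subgroup G) : Set G))) ⟨n, hn⟩
  rw [Subgroup.mem_subgroupOf] at this
  exact this

theorem conj_mem_of_normalizer {n x : G}
    (hn : n ∈ Subgroup.normalizer ((P : Subgroup G) : Set G)) (hx : x ∈ (P : Subgroup G)) :
    n * x * n⁻¹ ∈ (P : Subgroup G) := (Subgroup.mem_normalizer_iff.1 hn x).1 hx

theorem Rank2.no_four (h : Rank2 P) {w x y z : G}
    (hw : w ∈ (P : Subgroup G)) (hx : x ∈ (P : Subgroup G)) (hy : y ∈ (P : Subgroup G))
    (hz : z ∈ (P : Subgroup G)) (hw2 : w * w = 1) (hx2 : x * x = 1) (hy2 : y * y = 1)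
    (hz2 : z * z = 1) (hw1 : w ≠ 1) (hx1 : x ≠ 1) (hy1 : y ≠ 1) (hz1 : z ≠ 1)
    (hwx : w ≠ x) (hwy : w ≠ y) (hwz : w ≠ z) (hxy : x ≠ y) (hxz : x ≠ z) (hyz : y ≠ z) :
    False := by
  classical
  obtain ⟨a, b, hab⟩ := h.omega
  have h1 : ({w, x, y, z} : Finset G) ⊆ {a, b, a * b} := by
    intro v hv
    simp only [Finset.mem_insert, Finset.mem_singleton] at hv ⊢
    rcases hv with rfl | rfl | rfl | rfl
    · exact (hab _ hw hw2).resolve_left hw1
    · exact (hab _ hx hx2).resolve_left hx1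
    · exact (hab _ hy hy2).resolve_left hy1
    · exact (hab _ hz hz2).resolve_left hz1
  have h2 := Finset.card_le_card h1
  have h3 : ({w, x, y, z} : Finset G).card = 4 := by
    rw [Finset.card_insert_of_notMem (by simp [hwx, hwy, hwz]),
      Finset.card_insert_of_notMem (by simp [hxy, hxz]),
      Finset.card_insert_of_notMem (by simp [hyz]), Finset.card_singleton]
  have h4 : ({a, b, a * b} : Finset G).card ≤ 3 := Finset.card_le_three
  omega

/-- If `n ∈ N(P)` fixes an involution of `P`, then `n²` fixes all of them. -/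
theorem Rank2.sq_fix (h : Rank2 P) {n a b : G}
    (hn : n ∈ Subgroup.normalizer ((P : Subgroup G) : Set G))
    (ha : a ∈ (P : Subgroup G)) (ha2 : a * a = 1) (ha1 : a ≠ 1) (hfix : n * a * n⁻¹ = a)
    (hb : b ∈ (P : Subgroup G)) (hb2 : b * b = 1) :
    n * (n * b * n⁻¹) * n⁻¹ = b := by
  by_contra hne
  have hinj : ∀ u v : G, n * u * n⁻¹ = n * v * n⁻¹ → u = v := by
    intro u v huv
    exact mul_left_cancel (mul_right_cancel huv)
  have hb1 : b ≠ 1 := by
    rintro rfl
    apply hne; group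
  have hsq : ∀ u : G, u * u = 1 → (n * u * n⁻¹) * (n * u * n⁻¹) = 1 := by
    intro u hu
    calc (n * u * n⁻¹) * (n * u * n⁻¹) = n * (u * u) * n⁻¹ := by group
      _ = 1 := by rw [hu]; group
  have hn1 : ∀ u : G, u ≠ 1 → n * u * n⁻¹ ≠ 1 := by
    intro u hu h0
    apply hu
    apply hinj
    rw [h0]; group
  have hab : a ≠ b := by
    rintro rfl
    apply hne
    rw [hfix, hfix]
  apply h.no_four ha hb (conj_mem_of_normalizer hn hb)
    (conj_mem_of_normalizer hn (conj_mem_of_normalizer hn hb)) ha2 hb2 (hsq _ hb2)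
    (hsq _ (hsq _ hb2)) ha1 hb1 (hn1 _ hb1) (hn1 _ (hn1 _ hb1)) hab
  · intro h0
    apply hab
    apply hinj
    rw [hfix]; exact h0
  · intro h0
    apply hab
    apply hinj
    apply hinj
    rw [hfix, hfix]; exact h0
  · intro h0
    apply hne
    rw [← h0, ← h0]
  · exact fun h0 => hne h0.symm
  · intro h0
    have := hinj _ _ h0
    apply hne
    rw [← this, ← this]

/-- An element of `N(P)` centralizing all involutions of `P` centralizes `P`. -/
theorem Rank2.fix_all (h : Rank2 P) {n : G}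
    (hn : n ∈ Subgroup.normalizer ((P : Subgroup G) : Set G))
    (hfix : ∀ z ∈ (P : Subgroup G), z * z = 1 → n * z * n⁻¹ = z) :
    n ∈ Subgroup.centralizer ((P : Subgroup G) : Set G) := by
  obtain ⟨o, ho⟩ : ∃ o, o = (Subgroup.centralizer ((P : Subgroup G) : Set G)).relIndex
      (Subgroup.normalizer ((P : Subgroup G) : Set G)) := ⟨_, rfl⟩
  have hodd : Odd o := by rw [ho]; exact h.odd_relIndex
  have hno : n ^ o ∈ Subgroup.centralizer ((P : Subgroup G) : Set G) := by
    rw [ho]; exact pow_relIndex_mem_centralizer hn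
  have key : ∀ k : ℕ, ∀ x ∈ (P : Subgroup G), x ^ (2 ^ k) = 1 → n * x * n⁻¹ = x := by
    intro k
    induction k with
    | zero =>
      intro x _ hx
      rw [pow_zero, pow_one] at hx
      rw [hx]; group
    | succ k ih =>
      intro x hx hxk
      obtain ⟨c, hc⟩ : ∃ c, c = n * x * n⁻¹ * x⁻¹ := ⟨_, rfl⟩
      have hcP : c ∈ (P : Subgroup G) := by
        rw [hc]; exact mul_mem (conj_mem_of_normalizer hn hx) (inv_mem hx)
      have hz : n * x ^ (2 ^ k) * n⁻¹ = x ^ (2 ^ k) := by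
        apply hfix _ (pow_mem hx _)
        rw [← pow_add, ← two_mul, ← pow_succ']
        exact hxk
      have hck : c ^ (2 ^ k) = 1 := by
        have hcomm : Commute (n * x * n⁻¹) x⁻¹ :=
          h.comm _ (conj_mem_of_normalizer hn hx) _ (inv_mem hx)
        rw [hc, hcomm.mul_pow, conj_pow, hz, inv_pow, mul_inv_cancel]
      have hcfix := ih c hcP hck
      have hnx : n * x * n⁻¹ = c * x := by rw [hc]; group
      have hj : ∀ j : ℕ, n ^ j * x * (n ^ j)⁻¹ = c ^ j * x := by
        intro j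
        induction j with
        | zero => simp
        | succ j ihj =>
          calc n ^ (j + 1) * x * (n ^ (j + 1))⁻¹ = n * (n ^ j * x * (n ^ j)⁻¹) * n⁻¹ := by
                rw [pow_succ']; group
            _ = n * (c ^ j * x) * n⁻¹ := by rw [ihj]
            _ = (n * c * n⁻¹) ^ j * (n * x * n⁻¹) := by rw [conj_pow]; group
            _ = c ^ (j + 1) * x := by rw [hcfix, hnx, pow_succ, mul_assoc]
      have hco : c ^ o = 1 := by
        have h1 := hj o
        rw [Subgroup.mem_centralizer_iff] at hno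
        rw [← hno x hx, mul_inv_cancel_right] at h1
        exact (mul_eq_right.1 h1.symm)
      have hc1 : c = 1 := by
        have h1 : orderOf c ∣ o := orderOf_dvd_of_pow_eq_one hco
        have h2 : orderOf c ∣ 2 ^ k := orderOf_dvd_of_pow_eq_one hck
        have h3 : Nat.Coprime o (2 ^ k) :=
          Nat.Coprime.pow_right k (Nat.coprime_two_right.2 hodd)
        exact orderOf_eq_one_iff.1 (Nat.eq_one_of_dvd_coprimes h3 h1 h2)
      rw [hnx, hc1, one_mul]
  rw [Subgroup.mem_centralizer_iff]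
  intro x hx
  obtain ⟨k, hk⟩ := isPGroup_orderOf P.isPGroup' hx
  have := key k x hx (by rw [← hk, pow_orderOf_eq_one])
  exact (mul_inv_eq_iff_eq_mul.1 this).symm

/-- `N(P)/C(P)` acts freely on `P ∖ {1}`. -/
theorem Rank2.free (h : Rank2 P) {n z : G}
    (hn : n ∈ Subgroup.normalizer ((P : Subgroup G) : Set G)) (hz : z ∈ (P : Subgroup G))
    (hz1 : z ≠ 1) (hfix : n * z * n⁻¹ = z) :
    n ∈ Subgroup.centralizer ((P : Subgroup G) : Set G) := by
  obtain ⟨k, hk⟩ := isPGroup_orderOf P.isPGroup' hz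
  have hk0 : k ≠ 0 := by
    rintro rfl
    rw [pow_zero, orderOf_eq_one_iff] at hk
    exact hz1 hk
  obtain ⟨j, rfl⟩ := Nat.exists_eq_succ_of_ne_zero hk0
  obtain ⟨a, ha⟩ : ∃ a, a = z ^ (2 ^ j) := ⟨_, rfl⟩
  have haP : a ∈ (P : Subgroup G) := by rw [ha]; exact pow_mem hz _
  have ha2 : a * a = 1 := by
    rw [ha, ← pow_add, ← two_mul, ← pow_succ', ← Nat.succ_eq_add_one, ← hk, pow_orderOf_eq_one]
  have ha1 : a ≠ 1 := by
    rw [ha]
    apply pow_ne_one_of_lt_orderOf (by positivity)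
    rw [hk]
    exact Nat.pow_lt_pow_right (by norm_num) (Nat.lt_succ_self j)
  have hafix : n * a * n⁻¹ = a := by rw [ha, ← conj_pow, hfix]
  apply h.fix_all hn
  intro b hb hb2
  obtain ⟨o, ho⟩ : ∃ o, o = (Subgroup.centralizer ((P : Subgroup G) : Set G)).relIndex
      (Subgroup.normalizer ((P : Subgroup G) : Set G)) := ⟨_, rfl⟩
  have hodd : Odd o := by rw [ho]; exact h.odd_relIndex
  have hno : n ^ o ∈ Subgroup.centralizer ((P : Subgroup G) : Set G) := by
    rw [ho]; exact pow_relIndex_mem_centralizer hn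
  have h1 : n ^ 2 ∈ Subgroup.centralizer ({b} : Set G) := by
    rw [Helper24.mem_centralizer_singleton]
    have := h.sq_fix hn haP ha2 ha1 hafix hb hb2
    have e : n ^ 2 * b * (n ^ 2)⁻¹ = b := by
      calc n ^ 2 * b * (n ^ 2)⁻¹ = n * (n * b * n⁻¹) * n⁻¹ := by rw [pow_two]; group
        _ = b := this
    exact (mul_inv_eq_iff_eq_mul.1 e).symm
  have h2 : n ^ o ∈ Subgroup.centralizer ({b} : Set G) :=
    Subgroup.centralizer_le (Set.singleton_subset_iff.2 hb) hno
  obtain ⟨i, hi⟩ := hodd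
  have h3 : n ∈ Subgroup.centralizer ({b} : Set G) := by
    have e : n = n ^ o * ((n ^ 2) ^ i)⁻¹ := by
      rw [eq_mul_inv_iff_mul_eq, ← pow_mul, hi, pow_succ']
    rw [e]
    exact mul_mem h2 (inv_mem (pow_mem h1 i))
  rw [Helper24.mem_centralizer_singleton] at h3
  rw [← h3, mul_inv_cancel_right]

theorem Rank2.freeHyp (h : Rank2 P) :
    FreeHyp P ((Subgroup.centralizer ((P : Subgroup G) : Set G)).relIndex
      (Subgroup.normalizer ((P : Subgroup G) : Set G))) := by
  refine ⟨h.comm, h.ne, rfl, ?_⟩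
  intro y hy hy1
  apply le_antisymm
  · rintro n ⟨hn1, hn2⟩
    have hn1' : n ∈ Subgroup.centralizer ({y} : Set G) := hn1
    rw [Helper24.mem_centralizer_singleton] at hn1'
    exact h.free hn2 hy hy1 (by rw [← hn1', mul_inv_cancel_right])
  · exact le_inf (Subgroup.centralizer_le (Set.singleton_subset_iff.2 hy))
      (Subgroup.centralizer_le_normalizer _)

theorem Rank2.exists_involution (h : Rank2 P) :
    ∃ t : ↥(P : Subgroup G), t ≠ 1 ∧ t * t = 1 := by
  obtain ⟨k, hk⟩ := IsPGroup.iff_card.1 P.isPGroup'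
  have hk0 : k ≠ 0 := by
    rintro rfl
    exact h.ne hk
  obtain ⟨t, ht⟩ := exists_prime_orderOf_dvd_card' (G := ↥(P : Subgroup G)) 2
    (by rw [hk]; exact dvd_pow_self 2 hk0)
  refine ⟨t, ?_, ?_⟩
  · rintro rfl
    rw [orderOf_one] at ht
    omega
  · have := pow_orderOf_eq_one t
    rw [ht] at this
    rw [← pow_two]; exact this

theorem Rank2.relIndex_eq (h : Rank2 P) :
    (Subgroup.centralizer ((P : Subgroup G) : Set G)).relIndex
      (Subgroup.normalizer ((P : Subgroup G) : Set G)) = 1 ∨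
    (Subgroup.centralizer ((P : Subgroup G) : Set G)).relIndex
      (Subgroup.normalizer ((P : Subgroup G) : Set G)) = 3 := by
  classical
  obtain ⟨t, ht1, ht2⟩ := h.exists_involution
  have h1 := h.freeHyp.ncard_orbit_elt ht1
  obtain ⟨a, b, hab⟩ := h.omega
  have h2 : Subtype.val '' (MulAction.orbit (Subgroup.normalizer ((P : Subgroup G) : Set G)) t)
      ⊆ (({a, b, a * b} : Finset G) : Set G) := by
    rintro _ ⟨_, ⟨x, rfl⟩, rfl⟩
    have hs2 : (x • t) * (x • t) = 1 := by rw [← smul_mul', ht2, smul_one]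
    have hs1 : x • t ≠ 1 := by
      intro h0
      apply ht1
      have : x⁻¹ • (x • t) = x⁻¹ • (1 : ↥(P : Subgroup G)) := by rw [h0]
      rwa [inv_smul_smul, smul_one] at this
    have := (hab (x • t : ↥(P : Subgroup G)) (x • t : ↥(P : Subgroup G)).2
      (by exact_mod_cast congrArg Subtype.val hs2)).resolve_left
      (fun h0 => hs1 (Subtype.ext h0))
    simpa using this
  have h3 := Set.ncard_le_ncard h2 (Finset.finite_toSet _)
  rw [Set.ncard_image_of_injective _ Subtype.val_injective, h1, Set.ncard_coe_finset] at h3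
  have h4 : ({a, b, a * b} : Finset G).card ≤ 3 := Finset.card_le_three
  obtain ⟨i, hi⟩ := h.odd_relIndex
  omega

theorem zmod_two_torsion (m : ℕ) (hm : 1 ≤ m) (u : ZMod (2 ^ m)) (hu : u + u = 0) :
    u = 0 ∨ u = ((2 ^ (m - 1) : ℕ) : ZMod (2 ^ m)) := by
  haveI : NeZero (2 ^ m) := ⟨by positivity⟩
  obtain ⟨k, rfl⟩ : ∃ k, m = k + 1 := ⟨m - 1, by omega⟩
  have h1 : ((u.val + u.val : ℕ) : ZMod (2 ^ (k + 1))) = 0 := by
    push_cast
    rw [ZMod.natCast_zmod_val]
    exact hu
  rw [ZMod.natCast_eq_zero_iff] at h1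
  have h2 : u.val < 2 ^ (k + 1) := ZMod.val_lt u
  obtain ⟨q, hq⟩ := h1
  have hpow : 2 ^ (k + 1) = 2 ^ k * 2 := pow_succ 2 k
  obtain ⟨v, hv⟩ : ∃ v, v = u.val := ⟨_, rfl⟩
  rw [← hv] at hq h2
  rw [hpow] at hq h2
  have h3 : u.val = 2 ^ k * q := by
    have : 2 * v = 2 * (2 ^ k * q) := by rw [two_mul, hq]; ring
    omega
  have h4 : q < 2 := by
    by_contra hlt
    have : 2 ^ k * 2 ≤ 2 ^ k * q := Nat.mul_le_mul_left _ (by omega)
    omega
  rw [Nat.add_sub_cancel, ← ZMod.natCast_zmod_val u, h3]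
  interval_cases q
  · left; simp
  · right; simp

theorem rank2_of_equiv (P : Sylow 2 G) (m : ℕ) (hm : 1 ≤ m)
    (e : (P : Subgroup G) ≃* Multiplicative (ZMod (2 ^ m) × ZMod (2 ^ m))) :
    Rank2 P ∧ Nat.card P = 2 ^ m * 2 ^ m := by
  have hcard : Nat.card P = 2 ^ m * 2 ^ m := by
    have h1 : Nat.card P = Nat.card (Multiplicative (ZMod (2 ^ m) × ZMod (2 ^ m))) :=
      Nat.card_congr e.toEquiv
    rw [h1]
    show Nat.card (ZMod (2 ^ m) × ZMod (2 ^ m)) = _
    rw [Nat.card_prod, Nat.card_zmod]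
  refine ⟨⟨?_, ?_, ?_⟩, hcard⟩
  · intro a ha b hb
    have : (⟨a, ha⟩ : ↥(P : Subgroup G)) * ⟨b, hb⟩ = ⟨b, hb⟩ * ⟨a, ha⟩ := by
      apply e.injective
      rw [map_mul, map_mul, mul_comm]
    exact congrArg Subtype.val this
  · rw [hcard]
    have : 2 ≤ 2 ^ m := by
      calc 2 = 2 ^ 1 := by norm_num
        _ ≤ 2 ^ m := Nat.pow_le_pow_right (by norm_num) hm
    nlinarith
  · obtain ⟨c, hc⟩ : ∃ c : ZMod (2 ^ m), c = ((2 ^ (m - 1) : ℕ) : ZMod (2 ^ m)) := ⟨_, rfl⟩
    refine ⟨(e.symm (Multiplicative.ofAdd (c, 0)) : ↥(P : Subgroup G)),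
      (e.symm (Multiplicative.ofAdd (0, c)) : ↥(P : Subgroup G)), ?_⟩
    intro x hx hxx
    obtain ⟨w, hw⟩ : ∃ w : ZMod (2 ^ m) × ZMod (2 ^ m), w = Multiplicative.toAdd (e ⟨x, hx⟩) :=
      ⟨_, rfl⟩
    have hxw : (⟨x, hx⟩ : ↥(P : Subgroup G)) = e.symm (Multiplicative.ofAdd w) := by
      rw [hw, ofAdd_toAdd, MulEquiv.symm_apply_apply]
    have hww : w + w = 0 := by
      have h1 : e (⟨x, hx⟩ * ⟨x, hx⟩) = 1 := by
        have : (⟨x, hx⟩ : ↥(P : Subgroup G)) * ⟨x, hx⟩ = 1 := Subtype.ext hxx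
        rw [this, map_one]
      rw [map_mul] at h1
      have h2 := congrArg Multiplicative.toAdd h1
      rw [toAdd_mul, ← hw, toAdd_one] at h2
      exact h2
    have h1 := zmod_two_torsion m hm w.1 (congrArg Prod.fst hww)
    have h2 := zmod_two_torsion m hm w.2 (congrArg Prod.snd hww)
    rw [← hc] at h1 h2
    have hx' : x = ((e.symm (Multiplicative.ofAdd w) : ↥(P : Subgroup G)) : G) := by
      rw [← hxw]
    rw [hx', ← Subgroup.coe_mul, ← map_mul, ← ofAdd_add]
    have hw' : w = (w.1, w.2) := rfl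
    rw [hw']
    rcases h1 with h1 | h1 <;> rcases h2 with h2 | h2 <;> rw [h1, h2]
    · left
      have : (Multiplicative.ofAdd ((0 : ZMod (2 ^ m)), (0 : ZMod (2 ^ m)))) = 1 := rfl
      rw [this, map_one, Subgroup.coe_one]
    · right; right; left; rfl
    · right; left; rfl
    · right; right; right
      simp

end Cfsg.Agent.Lib.Helper2
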