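import Cfsg.Agent.Lib.Helper2.Homo2

set_option autoImplicit false
set_option linter.style.haveILetI false
set_option linter.unusedSectionVars false
set_option maxHeartbeats 1000000
open Cfsg

namespace Cfsg.Agent.Lib.Helper2

universe u

theorem pPrimeCore_two_eq_bot {G : Type u} [Group G] [Finite G]
    (hO : ∀ N : Subgroup G, N.Normal → Odd (Nat.card N) → N = ⊥) : pPrimeCore 2 G = ⊥ := by
  obtain ⟨h1, h2⟩ := Helper24.SC.pPrimeCore_mem (G := G) 2
  exact hO _ h1 (Nat.coprime_two_right.1 h2)

theorem odd_normal_eq_bot_of_normal {G : Type u} [Group G] [Finite G]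
    (hO : ∀ N : Subgroup G, N.Normal → Odd (Nat.card N) → N = ⊥) (K : Subgroup G) [K.Normal] :
    ∀ L : Subgroup K, L.Normal → Odd (Nat.card L) → L = ⊥ := by
  intro L hL hodd
  have h1 : L ≤ pPrimeCore 2 K := Helper24.SC.le_pPrimeCore hL (Nat.coprime_two_right.2 hodd)
  have h2 := Helper24.SC.pPrimeCore_map_le 2 K
  rw [pPrimeCore_two_eq_bot hO, le_bot_iff, Subgroup.map_eq_bot_iff_of_injective _
    K.subtype_injective] at h2
  rw [h2] at h1
  exact le_bot_iff.1 h1

/-- Brauer: a Sylow `2`-subgroup of type `(2^m, 2^m)`, `m ≥ 2`, is normal if `O(G) = 1`. -/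
theorem homocyclic_normal (m : ℕ) (hm : 2 ≤ m) : ∀ (n : ℕ) (G : Type u) [Group G] [Finite G]
    (P : Sylow 2 G), Nat.card G = n →
    Nonempty ((P : Subgroup G) ≃* Multiplicative (ZMod (2 ^ m) × ZMod (2 ^ m))) →
    (∀ N : Subgroup G, N.Normal → Odd (Nat.card N) → N = ⊥) → (P : Subgroup G).Normal := by
  intro n
  induction n using Nat.strong_induction_on with
  | _ n ih =>
    intro G _ _ P hn ⟨e⟩ hO
    obtain ⟨h, hcard⟩ := rank2_of_equiv P m (by omega) e
    rcases h.relIndex_eq with h1 | h3
    · have hle : Subgroup.normalizer ((P : Subgroup G) : Set G)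
          ≤ Subgroup.centralizer ((P : Subgroup G) : Set G) :=
        Subgroup.relIndex_eq_one.1 h1
      have hc := MonoidHom.ker_transferSylow_isComplement' P hle
      have hodd : Odd (Nat.card (MonoidHom.transferSylow P hle).ker) := by
        rw [← Nat.not_even_iff_odd, even_iff_two_dvd]
        exact MonoidHom.not_dvd_card_ker_transferSylow P hle
      have hbot := hO _ inferInstance hodd
      rw [hbot, Subgroup.isComplement'_bot_left] at hc
      rw [hc]
      infer_instance
    · have hF := h.freeHyp
      rw [h3] at hF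
      obtain ⟨M, hM⟩ := Helper7.exists_isPModular Nat.prime_two
      have h4 : 4 ≤ 2 ^ m := by
        calc 4 = 2 ^ 2 := by norm_num
          _ ≤ 2 ^ m := Nat.pow_le_pow_right (by norm_num) hm
      obtain ⟨K, hKn, hKtop, hPK⟩ := hF.exists_normal_of_two hM (by rw [hcard]; nlinarith)
      haveI := hKn
      have hlt : Nat.card K < n := by
        rw [← hn]
        apply lt_of_le_of_ne (Subgroup.card_le_card_group K)
        intro h0
        exact hKtop (Subgroup.eq_top_of_card_eq K h0)
      have hN' := ih (Nat.card K) hlt K (P.subtype hPK) rfl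
        ⟨(MulEquiv.subgroupCongr (Sylow.coe_subtype P hPK)).trans
          ((Subgroup.subgroupOfEquivOfLe hPK).trans e)⟩
        (odd_normal_eq_bot_of_normal hO K)
      haveI := Sylow.characteristic_of_normal (P.subtype hPK) hN'
      have h5 : (((P.subtype hPK : Sylow 2 K) : Subgroup K).map K.subtype).Normal :=
        ConjAct.normal_of_characteristic_of_normal
      rw [Sylow.coe_subtype, Subgroup.subgroupOf_map_subtype, inf_eq_left.2 hPK] at h5
      exact h5

end Cfsg.Agent.Lib.Helper2
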