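import Mathlib
import Cfsg.Prelude.Def_Characters
import Cfsg.Agent.Lib.Helper2.Quat4
import Cfsg.Agent.Lib.Helper2.Quat5
import Cfsg.Agent.Lib.Helper2.Quat6
import Cfsg.Agent.Lib.Helper2.CharNorm
import Cfsg.Agent.S0843

set_option autoImplicit false

namespace Cfsg.Agent.Lib.Helper2

open scoped ComplexConjugate

universe u
variable {G : Type u} [Group G]

/-- values of `(1 - μ)^G` in a TI situation with `|N : C| = 2` and `N` inverting `μ` -/
theorem ind_one_sub_hom_apply [Fintype G] (C N : Subgroup G) (hCN : C ≤ N)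
    (hNC : N ≤ Subgroup.normalizer (C : Set G)) (hidx : C.relIndex N = 2) (μ : C →* ℂˣ)
    (hinv : ∀ x ∈ N, x ∉ C → ∀ y : C, ∀ h : x⁻¹ * y * x ∈ C, μ ⟨x⁻¹ * y * x, h⟩ = (μ y)⁻¹)
    (hTI : ∀ y : C, μ y ≠ 1 → ∀ x : G, x⁻¹ * y * x ∈ C → x ∈ N) (y : C) (hy : μ y ≠ 1) :
    Cfsg.indFun C (fun y => 1 - (μ y : ℂ)) y = 2 - (μ y : ℂ) - (((μ y)⁻¹ : ℂˣ) : ℂ) := by
  classical
  obtain ⟨θ, hθ⟩ : ∃ θ : C → ℂ, θ = fun y => 1 - (μ y : ℂ) := ⟨_, rfl⟩
  rw [← hθ]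
  have hθy : ∀ y, θ y = 1 - (μ y : ℂ) := fun y => by rw [hθ]
  have hconj : ∀ y : C, conj (μ y : ℂ) = ((μ y)⁻¹ : ℂˣ) := by
    intro y
    rw [Units.val_inv_eq_inv_val, Complex.inv_eq_conj (norm_hom_eq_one μ y)]
  have hcardN : (Nat.card N : ℂ) = 2 * Nat.card C := by
    have := relIndex_mul_card' hCN
    rw [hidx] at this
    exact_mod_cast this.symm
  have hCne : (Nat.card C : ℂ) ≠ 0 := card_subgroup_ne_zero C
  have hterm : ∀ x : G, Cfsg.extendByZero C θ (x⁻¹ * y * x) =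
      Cfsg.extendByZero C (fun _ => θ y - conj (θ y)) x +
        Cfsg.extendByZero N (fun _ => conj (θ y)) x := by
    intro x
    by_cases hxC : x ∈ C
    · have hmem : x⁻¹ * y * x ∈ C := C.mul_mem (C.mul_mem (C.inv_mem hxC) y.2) hxC
      rw [extendByZero_of_mem C θ hmem, extendByZero_of_mem C _ hxC,
        extendByZero_of_mem N _ (hCN hxC), hθy, hθy]
      have h1 : (⟨x⁻¹ * y * x, hmem⟩ : C) = (⟨x, hxC⟩ : C)⁻¹ * y * ⟨x, hxC⟩ := rfl
      rw [h1, map_mul, map_mul, map_inv, mul_comm _ (μ y), inv_mul_cancel_right]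
      ring
    · by_cases hxN : x ∈ N
      · have hmem : x⁻¹ * y * x ∈ C := by
          have := ((Subgroup.mem_normalizer_iff.1 (hNC (N.inv_mem hxN))) y).1 y.2
          rwa [inv_inv] at this
        rw [extendByZero_of_mem C θ hmem, extendByZero_of_not_mem C _ hxC,
          extendByZero_of_mem N _ hxN, hθy, hθy, hinv x hxN hxC y hmem, map_sub, map_one, hconj]
        ring
      · have hmem : x⁻¹ * y * x ∉ C := fun h => hxN (hTI y hy x h)
        rw [extendByZero_of_not_mem C θ hmem, extendByZero_of_not_mem C _ hxC,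
          extendByZero_of_not_mem N _ hxN, add_zero]
  rw [indFun_apply, Finset.sum_congr rfl fun x _ => hterm x, Finset.sum_add_distrib,
    sum_extendByZero, sum_extendByZero, Finset.sum_const, Finset.sum_const, Finset.card_univ,
    Finset.card_univ, nsmul_eq_mul, nsmul_eq_mul, ← Nat.card_eq_fintype_card,
    ← Nat.card_eq_fintype_card, hcardN, hθy, map_sub, map_one, hconj]
  field_simp
  ring

/-- involutions lie in the kernels of the two Brauer-Suzuki characters -/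
theorem invol_mem_ker [Fintype G] {χ₁ χ₂ : G → ℂ} (h₁ : Cfsg.IsIrrCharacter G χ₁)
    (h₂ : Cfsg.IsIrrCharacter G χ₂) (hdeg : χ₁ 1 = χ₂ 1 + 1)
    (hval : ∀ g, ¬ 4 ∣ orderOf g → χ₁ g - χ₂ g = 1) {t : G} (ht : orderOf t = 2)
    (hprod : ∀ x y : G, ¬ 4 ∣ orderOf ((x * t * x⁻¹) * (y * t * y⁻¹))) :
    χ₁ t = χ₁ 1 ∧ χ₂ t = χ₂ 1 := by
  have s1 := sum_sum_char_conj_mul_conj h₁ t t
  have s2 := sum_sum_char_conj_mul_conj h₂ t t
  have s3 : ∑ x : G, ∑ y : G, (χ₁ ((x * t * x⁻¹) * (y * t * y⁻¹)) -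
      χ₂ ((x * t * x⁻¹) * (y * t * y⁻¹))) = (Nat.card G : ℂ) ^ 2 := by
    rw [Finset.sum_congr rfl fun x _ => Finset.sum_congr rfl fun y _ => hval _ (hprod x y)]
    simp only [Finset.sum_const, Finset.card_univ, nsmul_eq_mul, mul_one,
      ← Nat.card_eq_fintype_card]
    ring
  simp only [Finset.sum_sub_distrib] at s3
  rw [s1, s2] at s3
  have hG : (Nat.card G : ℂ) ≠ 0 := card_ne_zero'
  have hd1 := IsIrrCharacter.apply_one_ne_zero h₁
  have hd2 := IsIrrCharacter.apply_one_ne_zero h₂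
  have ht1 : χ₁ t = χ₂ t + 1 := by
    have := hval t (by rw [ht]; norm_num)
    linear_combination this
  have h4 : χ₁ t * χ₁ t / χ₁ 1 - χ₂ t * χ₂ t / χ₂ 1 = 1 := by
    have h5 : (Nat.card G : ℂ) ^ 2 * (χ₁ t * χ₁ t / χ₁ 1 - χ₂ t * χ₂ t / χ₂ 1) =
        (Nat.card G : ℂ) ^ 2 * 1 := by
      linear_combination s3
    exact mul_left_cancel₀ (pow_ne_zero 2 hG) h5
  have h6 : (χ₂ 1 - χ₂ t) ^ 2 = 0 := by
    rw [hdeg] at hd1
    rw [ht1, hdeg] at h4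
    field_simp at h4
    linear_combination -h4
  have h7 : χ₂ t = χ₂ 1 := by
    have := pow_eq_zero_iff (two_ne_zero) |>.1 h6
    linear_combination -this
  exact ⟨by rw [ht1, hdeg, h7], h7⟩

/-- the Brauer-Suzuki characters, with the extra information that they do not differ by `1` on a
generator of the commutator subgroup of the Sylow 2-subgroup -/
theorem quat_chars [Fintype G] (S : Sylow 2 G) (n : ℕ)
    (e : (S : Subgroup G) ≃* QuaternionGroup (2 ^ (n + 2))) :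
    ∃ (a : G) (χ₁ χ₂ : G → ℂ), a ∈ S ∧ orderOf a = 2 ^ (n + 3) ∧
      (∀ x ∈ S, x ∉ Subgroup.zpowers a → x * a * x⁻¹ = a⁻¹) ∧
      Cfsg.IsIrrCharacter G χ₁ ∧ Cfsg.IsIrrCharacter G χ₂ ∧ χ₁ ≠ (fun _ => 1) ∧
      χ₂ ≠ (fun _ => 1) ∧ χ₁ 1 = χ₂ 1 + 1 ∧ (∀ g : G, ¬ 4 ∣ orderOf g → χ₁ g - χ₂ g = 1) ∧
      χ₁ (a ^ 2) - χ₂ (a ^ 2) ≠ 1 := by
  obtain ⟨D, hD⟩ : ∃ D : Subgroup G, D = ⁅(S : Subgroup G), (S : Subgroup G)⁆ := ⟨_, rfl⟩
  obtain ⟨a, s, K, haS, hsS, hoa, hDz, hDcard, hSC, hconj, hSN, hNC, hKC, hKodd, hKsup, hKchar,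
    hrel, hidx, hsup⟩ := quat_local S n e D hD
  obtain ⟨C, hC⟩ : ∃ C : Subgroup G, C = Subgroup.centralizer (D : Set G) := ⟨_, rfl⟩
  obtain ⟨N, hN⟩ : ∃ N : Subgroup G, N = Subgroup.normalizer (D : Set G) := ⟨_, rfl⟩
  have h843 := Cfsg.Agent.S0843.result S n e D hD
  rw [← hC] at hSC hNC hKC hKsup hKchar hrel hidx hsup h843
  rw [← hN] at hSN hNC hidx hsup h843
  have hCN : C ≤ N := hsup ▸ le_sup_left
  have haC : a ∈ C := by
    have : a ∈ (S : Subgroup G) ⊓ C := hSC ▸ Subgroup.mem_zpowers a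
    exact this.2
  obtain ⟨ν, hνa, hνK, hνpow⟩ := exists_faithful_hom C K a (n + 3) haC hKsup hKchar hoa
  -- conjugation by elements of `N` preserves `C` and `K`
  have hconjC : ∀ x ∈ N, ∀ y ∈ C, x⁻¹ * y * x ∈ C := by
    intro x hx y hy
    have := ((Subgroup.mem_normalizer_iff.1 (hNC (N.inv_mem hx))) y).1 hy
    rwa [inv_inv] at this
  have hord : ∀ x y : G, orderOf (x⁻¹ * y * x) = orderOf y := by
    intro x y
    have := orderOf_conj' x⁻¹ y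
    rwa [inv_inv] at this
  have hconjK : ∀ x ∈ N, ∀ y ∈ K, x⁻¹ * y * x ∈ K := by
    intro x hx y hy
    rw [hKchar] at hy ⊢
    exact ⟨hconjC x hx y hy.1, by rw [hord]; exact hy.2⟩
  have hsC : s ∉ C := by
    intro hs
    have h1 : s ∈ Subgroup.zpowers a := hSC ▸ (⟨hsS, hs⟩ : s ∈ (S : Subgroup G) ⊓ C)
    obtain ⟨j, rfl⟩ := Subgroup.mem_zpowers_iff.1 h1
    have h2 : a ^ j * a * (a ^ j)⁻¹ = a := by
      rw [((Commute.refl a).zpow_left j).eq, mul_inv_cancel_right]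
    rw [h2] at hconj
    have h3 : a ^ 2 = 1 := by
      rw [sq]; nth_rw 1 [hconj]; exact inv_mul_cancel a
    have h4 := orderOf_dvd_of_pow_eq_one h3
    rw [hoa] at h4
    have h5 := Nat.le_of_dvd (by norm_num) h4
    have h6 : 2 ^ 3 ≤ 2 ^ (n + 3) := Nat.pow_le_pow_right (by norm_num) (by omega)
    omega
  have hsa : s⁻¹ * a * s = a⁻¹ := by
    have h1 : a = s⁻¹ * a⁻¹ * s := by rw [← hconj]; group
    have h2 : a⁻¹ = (s⁻¹ * a⁻¹ * s)⁻¹ := congrArg _ h1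
    rw [h2]; group
  -- `N \ C` inverts `ν`
  have hνinv : ∀ x ∈ N, x ∉ C → ∀ y : C, ∀ h : x⁻¹ * y * x ∈ C,
      ν ⟨x⁻¹ * y * x, h⟩ = (ν y)⁻¹ := by
    intro x hxN hxC y h
    have hc : s⁻¹ * x ∈ C := by
      have h1 := Subgroup.mul_mem_iff_of_index_two (H := C.subgroupOf N) hidx
        (a := ⟨s⁻¹, N.inv_mem (hSN hsS)⟩) (b := ⟨x, hxN⟩)
      simp only [Subgroup.mem_subgroupOf, Subgroup.coe_mul] at h1
      rw [h1]
      constructor
      · intro h2; exact absurd (by simpa using C.inv_mem h2) hsC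
      · intro h2; exact absurd h2 hxC
    have hxa : ν ⟨x⁻¹ * a * x, hconjC x hxN a haC⟩ = (ν ⟨a, haC⟩)⁻¹ := by
      have h1 : (⟨x⁻¹ * a * x, hconjC x hxN a haC⟩ : C) =
          (⟨s⁻¹ * x, hc⟩ : C)⁻¹ * (⟨a, haC⟩ : C)⁻¹ * ⟨s⁻¹ * x, hc⟩ := by
        apply Subtype.ext
        simp only [Subgroup.coe_mul, Subgroup.coe_inv]
        rw [← hsa]; group
      rw [h1, map_mul, map_mul, map_inv, map_inv, mul_comm _ (ν ⟨a, haC⟩)⁻¹, inv_mul_cancel_right]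
    have hzK : Subgroup.zpowers a ≤ Subgroup.normalizer (K : Set G) := by
      rw [Subgroup.zpowers_le, Subgroup.mem_normalizer_iff]
      intro k
      rw [hKchar, hKchar, orderOf_conj']
      have := (Subgroup.mem_normalizer_iff.1 (hNC (hCN haC))) k
      rw [this]
    have hy : (y : G) ∈ ((Subgroup.zpowers a ⊔ K : Subgroup G) : Set G) := by
      rw [sup_comm, hKsup]; exact y.2
    rw [Subgroup.coe_mul_of_left_le_normalizer_right _ _ hzK] at hy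
    obtain ⟨_, hz, k, hk, hyk⟩ := hy
    obtain ⟨j, rfl⟩ := Subgroup.mem_zpowers_iff.1 hz
    have hkC : k ∈ C := hKC hk
    have hy1 : y = (⟨a, haC⟩ : C) ^ j * ⟨k, hkC⟩ := by
      apply Subtype.ext
      simp only [Subgroup.coe_mul, Subgroup.coe_zpow]
      exact hyk.symm
    have hy2 : (⟨x⁻¹ * y * x, h⟩ : C) = (⟨x⁻¹ * a * x, hconjC x hxN a haC⟩ : C) ^ j *
        ⟨x⁻¹ * k * x, hconjC x hxN k hkC⟩ := by
      apply Subtype.ext
      simp only [Subgroup.coe_mul, Subgroup.coe_zpow]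
      have h3 : (x⁻¹ * a * x) ^ j = x⁻¹ * a ^ j * x := by
        have := conj_zpow (a := x⁻¹) (b := a) (i := j)
        rwa [inv_inv] at this
      rw [h3, ← hyk]
      simp only []
      group
    rw [hy2, hy1, map_mul, map_mul, map_zpow, map_zpow, hxa, hνK ⟨k, hkC⟩ hk,
      hνK ⟨x⁻¹ * k * x, _⟩ (hconjK x hxN k hk), mul_one, mul_one, inv_zpow]
  -- the linear character of order four
  obtain ⟨μ, hμ⟩ : ∃ μ : C →* ℂˣ, μ = ν ^ (2 ^ (n + 1)) := ⟨_, rfl⟩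
  have hμy : ∀ y, μ y = ν y ^ (2 ^ (n + 1)) := fun y => by rw [hμ, MonoidHom.pow_apply]
  have hP3 : ∀ y : C, μ y ≠ 1 → 2 ^ (n + 2) ∣ orderOf (y : G) := by
    intro y hy
    have h1 : orderOf (ν y) ∣ 2 ^ (n + 3) := orderOf_dvd_of_pow_eq_one (hνpow y)
    obtain ⟨t, ht, hot⟩ := (Nat.dvd_prime_pow Nat.prime_two).1 h1
    have h2 : n + 2 ≤ t := by
      by_contra hlt
      apply hy
      rw [hμy]
      apply orderOf_dvd_iff_pow_eq_one.1
      rw [hot]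
      exact pow_dvd_pow 2 (by omega)
    have h3 : orderOf (ν y) ∣ orderOf y := orderOf_map_dvd ν y
    rw [Subgroup.orderOf_coe]
    exact (pow_dvd_pow 2 h2).trans (hot ▸ h3)
  have hsq : ∃ y, μ y ^ 2 ≠ 1 := by
    refine ⟨⟨a, haC⟩, fun h => ?_⟩
    rw [hμy, ← pow_mul] at h
    have h1 := orderOf_dvd_of_pow_eq_one h
    rw [hνa] at h1
    have h2 : 2 ^ (n + 1) * 2 = 2 ^ (n + 2) := by ring
    rw [h2] at h1
    have h3 := Nat.le_of_dvd (by positivity) h1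
    have h4 : 2 ^ (n + 2) < 2 ^ (n + 3) := Nat.pow_lt_pow_right (by norm_num) (by omega)
    omega
  have hTI : ∀ y : C, μ y ≠ 1 → ∀ x : G, x⁻¹ * y * x ∈ C → x ∈ N := by
    intro y hy x hx
    have h1 := h843.2.1 x⁻¹ y y.2 (by rw [hDcard]; exact hP3 y hy) (by rwa [inv_inv])
    simpa using N.inv_mem h1
  have hinv : ∀ x ∈ N, x ∉ C → ∀ y : C, ∀ h : x⁻¹ * y * x ∈ C,
      μ ⟨x⁻¹ * y * x, h⟩ = (μ y)⁻¹ := by
    intro x hxN hxC y h
    rw [hμy, hμy, hνinv x hxN hxC y h, inv_pow]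
  obtain ⟨h3, h1⟩ := norm_ind_one_sub_hom C N hCN hNC hidx μ hinv hTI hsq
  have hgen : Cfsg.IsGeneralizedCharacter G (Cfsg.indFun C (fun y => 1 - (μ y : ℂ))) :=
    IsGeneralizedCharacter.ind C
      ⟨fun _ => 1, fun y => (μ y : ℂ), IsCharacter.one, isCharacter_of_hom μ, rfl⟩
  have hvanish : ∀ g : G, ¬ 4 ∣ orderOf g → Cfsg.indFun C (fun y => 1 - (μ y : ℂ)) g = 0 := by
    intro g hg
    rw [indFun_apply, Finset.sum_eq_zero, mul_zero]
    intro x _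
    by_cases hmem : x⁻¹ * g * x ∈ C
    · rw [extendByZero_of_mem C _ hmem]
      by_contra hne
      have h5 : μ ⟨x⁻¹ * g * x, hmem⟩ ≠ 1 := by
        intro h6; apply hne; rw [h6]; simp
      have h6 := hP3 _ h5
      simp only [hord] at h6
      apply hg
      refine Dvd.dvd.trans ?_ h6
      exact ⟨2 ^ n, by ring⟩
    · exact extendByZero_of_not_mem C _ hmem
  have h0 := hvanish 1 (by rw [orderOf_one]; norm_num)
  obtain ⟨χ₁, χ₂, hχ₁, hχ₂, hne₁, hne₂, -, hdeg, hval⟩ :=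
    IsGeneralizedCharacter.of_norm_three hgen h3 h1 h0
  refine ⟨a, χ₁, χ₂, haS, hoa, ?_, hχ₁, hχ₂, hne₁, hne₂, hdeg, fun g hg => ?_, ?_⟩
  · intro x hxS hxa
    have hxC : x ∉ C := fun h => hxa (hSC ▸ (⟨hxS, h⟩ : x ∈ (S : Subgroup G) ⊓ C))
    have hc : s⁻¹ * x ∈ C := by
      have h1 := Subgroup.mul_mem_iff_of_index_two (H := C.subgroupOf N) hidx
        (a := ⟨s⁻¹, N.inv_mem (hSN hsS)⟩) (b := ⟨x, hSN hxS⟩)
      simp only [Subgroup.mem_subgroupOf, Subgroup.coe_mul] at h1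
      rw [h1]
      constructor
      · intro h2; exact absurd (by simpa using C.inv_mem h2) hsC
      · intro h2; exact absurd h2 hxC
    have hz : s⁻¹ * x ∈ Subgroup.zpowers a :=
      hSC ▸ (⟨Subgroup.mul_mem _ (Subgroup.inv_mem _ hsS) hxS, hc⟩ :
        s⁻¹ * x ∈ (S : Subgroup G) ⊓ C)
    obtain ⟨j, hj⟩ := Subgroup.mem_zpowers_iff.1 hz
    have hx : x = s * a ^ j := by rw [hj]; group
    have h2 : a ^ j * a * (a ^ j)⁻¹ = a := by
      rw [((Commute.refl a).zpow_left j).eq, mul_inv_cancel_right]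
    calc x * a * x⁻¹ = s * (a ^ j * a * (a ^ j)⁻¹) * s⁻¹ := by rw [hx]; group
      _ = a⁻¹ := by rw [h2, hconj]
  · have := hval g
    rw [hvanish g hg] at this
    linear_combination this
  · intro hcon
    have ha2C : a ^ 2 ∈ C := C.pow_mem haC 2
    have hμa : μ ⟨a ^ 2, ha2C⟩ ≠ 1 := by
      intro h
      have h5 : (⟨a ^ 2, ha2C⟩ : C) = (⟨a, haC⟩ : C) ^ 2 := rfl
      rw [h5, map_pow, hμy, ← pow_mul] at h
      have h1 := orderOf_dvd_of_pow_eq_one h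
      rw [hνa] at h1
      have h2 : 2 ^ (n + 1) * 2 = 2 ^ (n + 2) := by ring
      rw [h2] at h1
      have h3 := Nat.le_of_dvd (by positivity) h1
      have h4 : 2 ^ (n + 2) < 2 ^ (n + 3) := Nat.pow_lt_pow_right (by norm_num) (by omega)
      omega
    have h7 := ind_one_sub_hom_apply C N hCN hNC hidx μ hinv hTI ⟨a ^ 2, ha2C⟩ hμa
    have h8 := hval (a ^ 2)
    simp only [] at h7
    rw [h8] at h7
    have h9 : (μ ⟨a ^ 2, ha2C⟩ : ℂ) * (((μ ⟨a ^ 2, ha2C⟩)⁻¹ : ℂˣ) : ℂ) = 1 := by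
      rw [← Units.val_mul, mul_inv_cancel, Units.val_one]
    have h10 : ((μ ⟨a ^ 2, ha2C⟩ : ℂ) - 1) ^ 2 = 0 := by
      linear_combination (μ ⟨a ^ 2, ha2C⟩ : ℂ) * h7 + (μ ⟨a ^ 2, ha2C⟩ : ℂ) * hcon - h9
    have h11 : (μ ⟨a ^ 2, ha2C⟩ : ℂ) = 1 := by
      have := pow_eq_zero_iff (two_ne_zero) |>.1 h10
      linear_combination this
    exact hμa (Units.val_eq_one.1 h11)

end Cfsg.Agent.Lib.Helper2
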