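import Mathlib
import Cfsg.Agent.Lib.Helper2.SL2y
import Cfsg.Agent.S2321

set_option autoImplicit false

namespace Cfsg.Agent.Lib.Helper2.SL2r

open scoped ComplexConjugate
open Matrix GL2

variable {F : Type*} [Field F]

theorem smk_conj_sq (e a : Fˣ) (c : F) :
    SL2c.smk e 0 * SL2c.smk a c * (SL2c.smk e 0)⁻¹ = SL2c.smk a ((e : F) * e * c) := by
  rw [mul_inv_eq_iff_eq_mul]
  apply Subtype.ext
  rw [Matrix.SpecialLinearGroup.coe_mul, Matrix.SpecialLinearGroup.coe_mul, SL2c.smk_coe,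
    SL2c.smk_coe, SL2c.smk_coe]
  ext i j
  fin_cases i <;> fin_cases j <;> simp [Matrix.mul_apply, Fin.sum_univ_two, mul_comm]
  field_simp

theorem smk_neg (c : F) : SL2c.smk (-1) c = zS * SL2c.smk 1 (-c) := by
  apply Subtype.ext
  rw [zS, Matrix.SpecialLinearGroup.coe_mul, SL2c.smk_coe, SL2c.smk_coe, SL2c.smk_coe]
  ext i j
  fin_cases i <;> fin_cases j <;> simp [Matrix.mul_apply, Fin.sum_univ_two]

theorem smk_inv_one : (SL2c.smk (1 : Fˣ) (1 : F))⁻¹ = SL2c.smk 1 (-1) := by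
  rw [inv_eq_iff_mul_eq_one]
  apply Subtype.ext
  rw [Matrix.SpecialLinearGroup.coe_mul, SL2c.smk_coe, SL2c.smk_coe]
  ext i j
  fin_cases i <;> fin_cases j <;> simp [Matrix.mul_apply, Fin.sum_univ_two]

theorem zS_sq : (zS : Matrix.SpecialLinearGroup (Fin 2) F) * zS = 1 := by
  apply Subtype.ext
  rw [zS, Matrix.SpecialLinearGroup.coe_mul, SL2c.smk_coe]
  ext i j
  fin_cases i <;> fin_cases j <;> simp [Matrix.mul_apply, Fin.sum_univ_two]

theorem scal_cases (s : Matrix.SpecialLinearGroup (Fin 2) F)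
    (h : Cfsg.Agent.Lib.Helper14.GL2.IsScal (s : Matrix (Fin 2) (Fin 2) F)) : s = 1 ∨ s = zS := by
  obtain ⟨h01, h10, h00⟩ := h
  have hdet := s.2
  rw [Matrix.det_fin_two, h01, zero_mul, sub_zero, ← h00] at hdet
  rcases mul_self_eq_one_iff.1 hdet with h | h
  · left
    apply Subtype.ext
    ext i j
    fin_cases i <;> fin_cases j <;> simp [h01, h10, ← h00, h]
  · right
    apply Subtype.ext
    rw [zS, SL2c.smk_coe]
    ext i j
    fin_cases i <;> fin_cases j <;> simp [h01, h10, ← h00, h]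

section fin
variable [Fintype F] [DecidableEq F]

theorem St_res_zero (s : Matrix.SpecialLinearGroup (Fin 2) F)
    (h4 : (s : Matrix (Fin 2) (Fin 2) F).trace ^ 2 = 4)
    (hs : ¬ Cfsg.Agent.Lib.Helper14.GL2.IsScal (s : Matrix (Fin 2) (Fin 2) F)) :
    res (St (1 : MulChar F ℂ)) s = 0 := by
  have hfac : ((s : Matrix (Fin 2) (Fin 2) F).trace - 2) *
      ((s : Matrix (Fin 2) (Fin 2) F).trace + 2) = 0 := by linear_combination h4
  obtain ⟨a, ha, ha2⟩ : ∃ a : Fˣ, (s : Matrix (Fin 2) (Fin 2) F).trace = 2 * (a : F) ∧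
      (a : F) * a = 1 := by
    rcases mul_eq_zero.1 hfac with h | h
    · exact ⟨1, by simp; linear_combination h, by simp⟩
    · exact ⟨-1, by simp; linear_combination h, by simp⟩
  have hc : IsConj (Matrix.SpecialLinearGroup.toGL s) (bmk a a 1) := by
    apply Cfsg.Agent.Lib.Helper14.GL2.isConj_GL_of_trace_det _ _ hs
    · intro h
      have := h.1
      simp [bmk_coe] at this
    · show (s : Matrix (Fin 2) (Fin 2) F).trace = _
      rw [ha, bmk_coe, Matrix.trace_fin_two]
      simp; ring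
    · show (s : Matrix (Fin 2) (Fin 2) F).det = _
      rw [s.2, bmk_coe, Matrix.det_fin_two]
      simp [ha2]
  rw [res, IsClassFunction.of_isConj (IsCharacter.isClassFunction (St_isCharacter 1)) hc]
  exact Cfsg.Agent.S2321.St_zu 1 a 1 one_ne_zero

theorem frob_sum {f : Matrix.SpecialLinearGroup (Fin 2) F → ℂ}
    (hf : Cfsg.IsClassFunction _ f)
    (h0 : ∀ s, f s * conj (res (St (1 : MulChar F ℂ)) s) = 0) :
    ∑ a : Fˣ, ∑ c : F, f (SL2c.smk a c) =
      ((Fintype.card F : ℂ) * ((Fintype.card F : ℂ) - 1)) *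
        ((Nat.card (Matrix.SpecialLinearGroup (Fin 2) F) : ℂ)⁻¹ * ∑ s, f s) := by
  haveI : Fintype ↥((Cfsg.upperTriangularGL 2 F).comap Matrix.SpecialLinearGroup.toGL) :=
    Fintype.ofFinite _
  have h1 := frobenius_reciprocity' _ (SL2c.lam1 (1 : MulChar F ℂ)) f hf
  have h2 : Cfsg.indFun _ (SL2c.lam1 (1 : MulChar F ℂ)) = res (II 1 1) := by
    have := res_II (1 : MulChar F ℂ) 1
    simpa using this.symm
  rw [h2, classInner_def, classInner_def] at h1
  have h3 : ∀ s : Matrix.SpecialLinearGroup (Fin 2) F,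
      f s * conj (res (II (1 : MulChar F ℂ) 1) s) = f s := by
    intro s
    have h4 : res (II (1 : MulChar F ℂ) 1) s = 1 + res (St 1) s := by
      simp only [res, II_diag, Pi.add_apply, dl_apply]
      have : ((Matrix.SpecialLinearGroup.toGL s : GL (Fin 2) F) :
        Matrix (Fin 2) (Fin 2) F).det = 1 := s.2
      rw [this, map_one]
    rw [h4, map_add, map_one, mul_add, mul_one, h0, add_zero]
  rw [Finset.sum_congr rfl fun s _ => h3 s, ← Equiv.sum_comp SL2c.sEquiv,
    Fintype.sum_prod_type, SL2c.card_b1] at h1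
  simp only [SL2c.lam1_sEquiv, MulChar.one_apply_coe, map_one, mul_one, SL2c.sEquiv_coe] at h1
  rw [h1]
  have e0 := qne0 (F := F)
  have e1 := qne1 (F := F)
  field_simp

end fin

end Cfsg.Agent.Lib.Helper2.SL2r
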