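import Mathlib
import Cfsg.Agent.Lib.Helper2.SL2z

set_option autoImplicit false

namespace Cfsg.Agent.Lib.Helper2.SL2r

open scoped ComplexConjugate
open Matrix GL2

variable {F : Type*} [Field F] [Fintype F] [DecidableEq F]

omit [Fintype F] [DecidableEq F] in
theorem smk_one_zero : SL2c.smk (1 : Fˣ) (0 : F) = 1 := by
  apply Subtype.ext
  rw [SL2c.smk_coe]
  ext i j
  fin_cases i <;> fin_cases j <;> simp

omit [Fintype F] [DecidableEq F] in
theorem smk_trace_ne (a : Fˣ) (c : F) (h1 : a ≠ 1) (h2 : a ≠ -1) :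
    (SL2c.smk a c : Matrix (Fin 2) (Fin 2) F).trace ^ 2 ≠ 4 := by
  rw [SL2c.smk_coe, Matrix.trace_fin_two]
  simp only [Matrix.of_apply, Matrix.cons_val_zero, Matrix.cons_val_one, Matrix.cons_val']
  intro h
  have ha : (a : F) ≠ 0 := a.ne_zero
  have h3 : ((a : F) * a - 1) ^ 2 = 0 := by
    have h4 : (a : F) * ((a⁻¹ : Fˣ) : F) = 1 := by simp
    have h5 : ((a : F) * ((a : F) + ((a⁻¹ : Fˣ) : F))) ^ 2 = (a : F) ^ 2 * 4 := by
      rw [mul_pow, h]
    rw [mul_add, h4] at h5
    linear_combination h5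
  have h6 : (a : F) * a = 1 := sub_eq_zero.1 (pow_eq_zero_iff two_ne_zero |>.1 h3)
  rcases mul_self_eq_one_iff.1 h6 with h | h
  · exact h1 (Units.ext h)
  · exact h2 (Units.ext (by simpa using h))

theorem half_value (hodd : Odd (Fintype.card F)) {ψ : GL (Fin 2) F → ℂ}
    (hψ : Cfsg.IsIrrCharacter _ ψ)
    {χ χ' : Matrix.SpecialLinearGroup (Fin 2) F → ℂ} (hχ : Cfsg.IsIrrCharacter _ χ)
    (hχ' : Cfsg.IsIrrCharacter _ χ') (hne : χ' ≠ χ) (hres : res ψ = χ + χ') (x : GL (Fin 2) F)
    (hx : ∀ g h : Matrix.SpecialLinearGroup (Fin 2) F,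
      Matrix.SpecialLinearGroup.toGL h = x * Matrix.SpecialLinearGroup.toGL g * x⁻¹ →
        χ' h = χ g) :
    (χ (SL2c.smk 1 1) - χ' (SL2c.smk 1 1)) ^ 2 =
      (-1 : ℂ) ^ ((Fintype.card F - 1) / 2) * (Fintype.card F : ℂ) := by
  have hodd' : Fintype.card F % 2 = 1 := Nat.odd_iff.1 hodd
  have hcl := IsCharacter.isClassFunction (IsIrrCharacter.isCharacter hχ)
  have hcl' := IsCharacter.isClassFunction (IsIrrCharacter.isCharacter hχ')
  have hclψ := IsCharacter.isClassFunction (IsIrrCharacter.isCharacter hψ)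
  set D : Matrix.SpecialLinearGroup (Fin 2) F → ℂ := χ - χ' with hD
  have hDa : ∀ s, D s = χ s - χ' s := fun s => rfl
  have hDcl : Cfsg.IsClassFunction _ D := fun g h => by rw [hDa, hDa, hcl, hcl']
  have hD0 : ∀ g : Matrix.SpecialLinearGroup (Fin 2) F,
      (g : Matrix (Fin 2) (Fin 2) F).trace ^ 2 ≠ 4 → D g = 0 := fun g h => by
    rw [hDa, conj_stable hodd hcl' x hx g h, sub_self]
  have h1 : χ' 1 = χ 1 := hx 1 1 (by simp)
  have hz : χ' zS = χ zS := hx zS zS (by rw [toGL_zS, scalar_central])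
  have hD1 : D 1 = 0 := by rw [hDa, h1, sub_self]
  have hDz : D zS = 0 := by rw [hDa, hz, sub_self]
  obtain ⟨d, hd⟩ := conj_smk hcl' x hx
  have hd2 : ∀ (a : Fˣ) (c : F), χ (SL2c.smk a (d * c)) = χ' (SL2c.smk a c) := by
    intro a c
    have e1 : res ψ (SL2c.smk a (d * c)) = res ψ (SL2c.smk a c) := by
      rw [res, res, SL2c.toGL_smk, SL2c.toGL_smk]
      have e2 : bmk d 1 0 * bmk a a⁻¹ c * (bmk d 1 0)⁻¹ = bmk a a⁻¹ (d * c) := by
        apply mul_bmk_eq
        rw [bmk_coe, bmk_coe, bmk_coe]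
        ext i j
        fin_cases i <;> fin_cases j <;> simp [Matrix.mul_apply, Fin.sum_univ_two, mul_comm]
      rw [← e2, hclψ]
    rw [hres] at e1
    simp only [Pi.add_apply] at e1
    rw [hd a c] at e1
    linear_combination e1
  have hDd : ∀ (a : Fˣ) (c : F), D (SL2c.smk a (d * c)) = - D (SL2c.smk a c) := by
    intro a c
    rw [hDa, hDa, hd, hd2]; ring
  have hDsq : ∀ (e a : Fˣ) (c : F), D (SL2c.smk a ((e : F) * e * c)) = D (SL2c.smk a c) := by
    intro e a c
    rw [← smk_conj_sq, hDcl]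
  set f : Matrix.SpecialLinearGroup (Fin 2) F → ℂ := fun s => D s * conj (D s) with hf
  have hfa : ∀ s, f s = D s * conj (D s) := fun s => rfl
  have hfcl : Cfsg.IsClassFunction _ f := fun g h => by rw [hfa, hfa, hDcl]
  have h0 : ∀ s, f s * conj (res (St (1 : MulChar F ℂ)) s) = 0 := by
    intro s
    by_cases h4 : (s : Matrix (Fin 2) (Fin 2) F).trace ^ 2 = 4
    · by_cases hs : Cfsg.Agent.Lib.Helper14.GL2.IsScal (s : Matrix (Fin 2) (Fin 2) F)
      · rcases scal_cases s hs with rfl | rfl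
        · rw [hfa, hD1]; simp
        · rw [hfa, hDz]; simp
      · rw [St_res_zero s h4 hs]; simp
    · rw [hfa, hD0 s h4]; simp
  have hsum := frob_sum hfcl h0
  have hnorm : (Nat.card (Matrix.SpecialLinearGroup (Fin 2) F) : ℂ)⁻¹ * ∑ s, f s = 2 := by
    have e : (Nat.card (Matrix.SpecialLinearGroup (Fin 2) F) : ℂ)⁻¹ * ∑ s, f s =
        Cfsg.classInner D D := rfl
    rw [e, hD, classInner_sub_left, classInner_sub_right, classInner_sub_right,
      irr_orthonormal hχ hχ, irr_orthonormal hχ hχ', irr_orthonormal hχ' hχ,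
      irr_orthonormal hχ' hχ', if_pos rfl, if_pos rfl, if_neg hne, if_neg (Ne.symm hne)]
    norm_num
  rw [hnorm] at hsum
  have q0 := qne0 (F := F)
  have q1 := qne1 (F := F)
  have hnsq : ¬ IsSquare (d : F) := by
    rintro ⟨e, he⟩
    have he0 : e ≠ 0 := by
      rintro rfl
      exact d.ne_zero (by simpa using he)
    have hall : ∀ (a : Fˣ) (c : F), D (SL2c.smk a c) = 0 := by
      intro a c
      have e1 := hDd a c
      have e2 := hDsq (Units.mk0 e he0) a c
      rw [Units.val_mk0, ← he, e1] at e2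
      have e3 : (2 : ℂ) * D (SL2c.smk a c) = 0 := by linear_combination -e2
      exact (mul_eq_zero.1 e3).resolve_left two_ne_zero
    have : ∑ a : Fˣ, ∑ c : F, f (SL2c.smk a c) = 0 :=
      Finset.sum_eq_zero fun a _ => Finset.sum_eq_zero fun c _ => by rw [hfa, hall]; simp
    rw [this] at hsum
    have h3 := mul_ne_zero (mul_ne_zero q0 q1) (two_ne_zero (α := ℂ))
    exact h3 hsum.symm
  set v := D (SL2c.smk 1 1) with hv
  have hDc : ∀ c : F, c ≠ 0 → D (SL2c.smk 1 c) = if IsSquare c then v else -v := by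
    intro c hc
    split_ifs with hsq
    · obtain ⟨e, he⟩ := hsq
      have he0 : e ≠ 0 := by
        rintro rfl
        exact hc (by simpa using he)
      have e2 := hDsq (Units.mk0 e he0) 1 1
      rw [Units.val_mk0, mul_one, ← he] at e2
      exact e2
    · obtain ⟨e, he⟩ := Cfsg.Agent.Lib.Helper14.SL2.isSquare_mul_of_not_isSquare hodd' hsq hnsq
      have he0 : e ≠ 0 := by
        rintro rfl
        exact (mul_ne_zero hc d.ne_zero) (by simpa using he)
      -- c = d * (e/d)^2
      have hc2 : c = (d : F) * ((e / d) * (e / d) * 1) := by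
        have hd0 : (d : F) ≠ 0 := d.ne_zero
        field_simp
        linear_combination he
      have e2 := hDsq (Units.mk0 (e / d) (div_ne_zero he0 d.ne_zero)) 1 1
      rw [Units.val_mk0] at e2
      rw [hc2, hDd, e2]
  set w := v * conj v with hw
  have hfc : ∀ c : F, f (SL2c.smk 1 c) = w - (if c = 0 then w else 0) := by
    intro c
    split_ifs with hc
    · rw [hc, smk_one_zero, hfa, hD1]; simp
    · rw [hfa, hDc c hc]
      split_ifs <;> simp [hw]
  have hs1 : ∑ c : F, f (SL2c.smk 1 c) = ((Fintype.card F : ℂ) - 1) * w := by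
    rw [Finset.sum_congr rfl fun c _ => hfc c, Finset.sum_sub_distrib, Finset.sum_const,
      Finset.sum_ite_eq' , Finset.card_univ, nsmul_eq_mul, if_pos (Finset.mem_univ _)]
    ring
  have hχ1 : χ 1 ≠ 0 := by
    obtain ⟨m, hm, hm1⟩ := IsIrrCharacter.apply_one_pos hχ
    rw [hm1]
    exact_mod_cast hm.ne'
  have hfz : ∀ y, f (zS * y) = f y := by
    intro y
    have e1 := zS_mul hχ y
    have e2 := zS_mul hχ' y
    have e3 := zS_mul hχ zS
    rw [zS_sq] at e3
    rw [h1, hz] at e2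
    have e4 : D (zS * y) * χ 1 = χ zS * D y := by
      rw [hDa, hDa]; linear_combination e1 - e2
    have e5 : (χ zS - χ 1) * (χ zS + χ 1) = 0 := by linear_combination -e3
    have e6 : D (zS * y) = D y ∨ D (zS * y) = - D y := by
      rcases mul_eq_zero.1 e5 with h | h
      · left
        apply mul_right_cancel₀ hχ1
        rw [e4, sub_eq_zero.1 h]; ring
      · right
        apply mul_right_cancel₀ hχ1
        rw [e4, eq_neg_of_add_eq_zero_left h]; ring
    rcases e6 with h | h <;> rw [hfa, hfa, h] <;> simp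
  have hs2 : ∑ c : F, f (SL2c.smk (-1) c) = ((Fintype.card F : ℂ) - 1) * w := by
    rw [← hs1, ← Equiv.sum_comp (Equiv.neg F)]
    refine Finset.sum_congr rfl fun c _ => ?_
    rw [smk_neg, hfz]
    simp
  have h2F : (2 : F) ≠ 0 := Cfsg.Agent.Lib.Helper14.SL2.two_ne_zero_of_odd hodd'
  have hne1 : (1 : Fˣ) ≠ -1 := by
    intro h
    have h3 : (1 : F) = -1 := by simpa using congrArg Units.val h
    exact h2F (by linear_combination h3)
  have hs : ∑ a : Fˣ, ∑ c : F, f (SL2c.smk a c) = 2 * (((Fintype.card F : ℂ) - 1) * w) := by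
    rw [Finset.sum_eq_add (1 : Fˣ) (-1) hne1 (fun a _ ha => Finset.sum_eq_zero fun c _ => by
      rw [hfa, hD0 _ (smk_trace_ne a c ha.1 ha.2)]; simp) (fun h => absurd (Finset.mem_univ _) h)
      (fun h => absurd (Finset.mem_univ _) h), hs1, hs2]
    ring
  rw [hs] at hsum
  have hwq : w = (Fintype.card F : ℂ) := by
    have h3 : ((Fintype.card F : ℂ) - 1) ≠ 0 := q1
    apply mul_left_cancel₀ (mul_ne_zero (two_ne_zero (α := ℂ)) h3)
    linear_combination hsum
  have hcv : conj v = if IsSquare (-1 : F) then v else -v := by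
    rw [← hDc (-1) (by simp), ← smk_inv_one, hv, hDa, hDa, map_sub,
      IsCharacter.conj_eq_inv (IsIrrCharacter.isCharacter hχ),
      IsCharacter.conj_eq_inv (IsIrrCharacter.isCharacter hχ')]
  have hgoal : (χ (SL2c.smk 1 1) - χ' (SL2c.smk 1 1)) = v := rfl
  rw [hgoal]
  rw [hw, hcv] at hwq
  obtain ⟨k, hk⟩ := hodd
  split_ifs at hwq with hsq
  · rw [FiniteField.isSquare_neg_one_iff] at hsq
    have hev : Even ((Fintype.card F - 1) / 2) := by
      rw [Nat.even_iff]; omega
    rw [hev.neg_one_pow, one_mul, ← hwq]; ring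
  · rw [FiniteField.isSquare_neg_one_iff, not_not] at hsq
    have hev : Odd ((Fintype.card F - 1) / 2) := by
      rw [Nat.odd_iff]; omega
    rw [hev.neg_one_pow, ← hwq]; ring

end Cfsg.Agent.Lib.Helper2.SL2r
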